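import Mathlib

/-!
Half-transitive automorphism groups (Isaacs–Passman), in the internal form used for
3/2-transitive permutation groups with a regular normal subgroup (helper50).

`N` is a normal subgroup of `Γ`, `H` a subgroup acting on `N` by conjugation such that the
centralizers `H ⊓ C(x)`, `x ∈ N`, `x ≠ 1`, all have the same order `c`.
-/

set_option autoImplicit false

namespace Cfsg.Agent.Lib.Helper50

/-- Setwise stabilizer of a set under conjugation. -/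
def wl_setStab {Γ : Type*} [Group Γ] (Y : Set Γ) : Subgroup Γ where
  carrier := {g | ∀ y, g * y * g⁻¹ ∈ Y ↔ y ∈ Y}
  one_mem' := by
    intro y
    simp
  mul_mem' := by
    intro a b ha hb y
    have e : a * b * y * (a * b)⁻¹ = a * (b * y * b⁻¹) * a⁻¹ := by group
    rw [e, ha, hb]
  inv_mem' := by
    intro a ha y
    have h1 := ha (a⁻¹ * y * a⁻¹⁻¹)
    have e : a * (a⁻¹ * y * a⁻¹⁻¹) * a⁻¹ = y := by group
    rw [e] at h1
    exact h1.symm

theorem wl_mem_setStab {Γ : Type*} [Group Γ] (Y : Set Γ) (g : Γ) :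
    g ∈ wl_setStab Y ↔ ∀ y, g * y * g⁻¹ ∈ Y ↔ y ∈ Y := Iff.rfl

/-- A `q`-group acting by conjugation on a set of size prime to `q` has a fixed point. -/
theorem wl_fixed_point {Γ : Type*} [Group Γ] {q : ℕ} [Fact q.Prime] (Q : Subgroup Γ)
    (hQ : IsPGroup q Q) (Y : Set Γ) (hstab : ∀ l ∈ Q, ∀ y ∈ Y, l * y * l⁻¹ ∈ Y)
    (hq : ¬ q ∣ Nat.card Y) : ∃ y ∈ Y, ∀ l ∈ Q, l * y * l⁻¹ = y := by
  let act : MulAction ↥Q ↥Y :=
    { smul := fun l y => ⟨(l : Γ) * y * (l : Γ)⁻¹, hstab l l.2 y y.2⟩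
      one_smul := fun y => Subtype.ext (by
        show ((1 : ↥Q) : Γ) * y * ((1 : ↥Q) : Γ)⁻¹ = y
        simp)
      mul_smul := fun a b y => Subtype.ext (by
        show ((a * b : ↥Q) : Γ) * y * ((a * b : ↥Q) : Γ)⁻¹
          = (a : Γ) * ((b : Γ) * y * (b : Γ)⁻¹) * (a : Γ)⁻¹
        rw [Subgroup.coe_mul]
        group) }
  obtain ⟨y, hy⟩ := hQ.nonempty_fixed_point_of_prime_not_dvd_card ↥Y hq
  exact ⟨y.1, y.2, fun l hl => congrArg Subtype.val (hy ⟨l, hl⟩)⟩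

/-- The core step: a subgroup `L ≤ H` stabilizing a set `Y ⊆ N ∖ {1}` of size dividing `|N|` and
containing the centralizers in `H` of the points of `Y` equals each of these centralizers. -/
theorem wl_core {Γ : Type*} [Group Γ] [Finite Γ] (N H : Subgroup Γ) [N.Normal] (c : ℕ)
    (hc : ∀ x ∈ N, x ≠ 1 → Nat.card ↥(H ⊓ Subgroup.centralizer ({x} : Set Γ)) = c)
    (L : Subgroup Γ) (hLH : L ≤ H) (Y : Set Γ) (hYN : ∀ y ∈ Y, y ∈ N ∧ y ≠ 1)
    (hYcard : Nat.card Y ∣ Nat.card N)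
    (hLY : ∀ l ∈ L, ∀ y ∈ Y, l * y * l⁻¹ ∈ Y)
    (hDL : ∀ y ∈ Y, H ⊓ Subgroup.centralizer ({y} : Set Γ) ≤ L) :
    ∀ y ∈ Y, L = H ⊓ Subgroup.centralizer ({y} : Set Γ) := by
  intro y₀ hy₀
  have hcpos : 0 < c := by
    rw [← hc y₀ (hYN y₀ hy₀).1 (hYN y₀ hy₀).2]
    exact Nat.card_pos
  have hdvd : Nat.card L ∣ c := by
    rw [Nat.dvd_iff_prime_pow_dvd_dvd]
    intro q k hq hqk
    have : Fact q.Prime := ⟨hq⟩
    obtain ⟨K', hK'⟩ := Sylow.exists_subgroup_card_pow_prime (G := ↥L) q hqk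
    set Q : Subgroup Γ := K'.map L.subtype with hQdef
    have hQcard : Nat.card Q = q ^ k := by
      rw [hQdef, Subgroup.card_map_of_injective L.subtype_injective, hK']
    have hQp : IsPGroup q Q := IsPGroup.of_card hQcard
    have hQL : Q ≤ L := Subgroup.map_subtype_le _
    have hfix : ∃ y ∈ N, y ≠ 1 ∧ ∀ l ∈ Q, l * y * l⁻¹ = y := by
      by_cases hqN : q ∣ Nat.card N
      · have h1 : ¬ q ∣ Nat.card ↥((N : Set Γ) \ {1}) := by
          rw [Nat.card_coe_set_eq, Set.ncard_sdiff_singleton_of_mem (Subgroup.one_mem N),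
            ← Nat.card_coe_set_eq]
          intro h2
          have h3 : 0 < Nat.card (N : Set Γ) := Nat.card_pos
          have h4 : q ∣ Nat.card (N : Set Γ) := hqN
          have h5 : q ∣ 1 := by
            have h6 := Nat.dvd_sub h4 h2
            have h7 : Nat.card (N : Set Γ) - (Nat.card (N : Set Γ) - 1) = 1 := by omega
            rw [h7] at h6
            exact h6
          exact hq.one_lt.ne' (Nat.dvd_one.1 h5)
        obtain ⟨y, hy, hyfix⟩ := wl_fixed_point Q hQp ((N : Set Γ) \ {1})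
          (fun l _ y hy => by
            refine ⟨(inferInstance : N.Normal).conj_mem y hy.1 l, ?_⟩
            intro h2
            apply hy.2
            have h3 : l * y * l⁻¹ = 1 := h2
            have h4 : y = l⁻¹ * (l * y * l⁻¹) * l := by group
            rw [h4, h3]
            simp) h1
        exact ⟨y, hy.1, hy.2, hyfix⟩
      · have h1 : ¬ q ∣ Nat.card Y := fun h2 => hqN (h2.trans hYcard)
        obtain ⟨y, hy, hyfix⟩ := wl_fixed_point Q hQp Y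
          (fun l hl y hy => hLY l (hQL hl) y hy) h1
        exact ⟨y, (hYN y hy).1, (hYN y hy).2, hyfix⟩
    obtain ⟨y, hyN, hy1, hyfix⟩ := hfix
    have hQD : Q ≤ H ⊓ Subgroup.centralizer ({y} : Set Γ) := by
      intro l hl
      refine Subgroup.mem_inf.2 ⟨hLH (hQL hl), ?_⟩
      rw [Subgroup.mem_centralizer_iff]
      intro z hz
      rw [Set.mem_singleton_iff] at hz
      subst hz
      have h1 := hyfix l hl
      calc z * l = (l * z * l⁻¹) * l := by rw [h1]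
        _ = l * z := by group
    have h2 := Subgroup.card_dvd_of_le hQD
    rw [hQcard, hc y hyN hy1] at h2
    exact h2
  have hle : Nat.card L ≤ Nat.card ↥(H ⊓ Subgroup.centralizer ({y₀} : Set Γ)) := by
    rw [hc y₀ (hYN y₀ hy₀).1 (hYN y₀ hy₀).2]
    exact Nat.le_of_dvd hcpos hdvd
  exact (Subgroup.eq_of_le_of_card_ge (hDL y₀ hy₀) hle).symm

theorem wl_mem_D {Γ : Type*} [Group Γ] (H : Subgroup Γ) (x h : Γ) :
    h ∈ H ⊓ Subgroup.centralizer ({x} : Set Γ) ↔ h ∈ H ∧ Commute h x := by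
  rw [Subgroup.mem_inf, Subgroup.mem_centralizer_iff]
  constructor
  · rintro ⟨h1, h2⟩
    exact ⟨h1, (h2 x rfl).symm⟩
  · rintro ⟨h1, h2⟩
    refine ⟨h1, ?_⟩
    intro z hz
    rw [Set.mem_singleton_iff] at hz
    subst hz
    exact h2.eq.symm

section

variable {Γ : Type*} [Group Γ] [Finite Γ] (N H : Subgroup Γ) [hNn : N.Normal] (c : ℕ)

/-- Variant of the core step: all the centralizers of the points of `Y` coincide. -/
theorem wl_core'
    (hc : ∀ x ∈ N, x ≠ 1 → Nat.card ↥(H ⊓ Subgroup.centralizer ({x} : Set Γ)) = c)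
    (Y : Set Γ) (hYN : ∀ y ∈ Y, y ∈ N ∧ y ≠ 1) (hYcard : Nat.card Y ∣ Nat.card N)
    (hstab : ∀ y ∈ Y, ∀ h ∈ H, h * y = y * h → ∀ y' ∈ Y, h * y' * h⁻¹ ∈ Y) :
    ∀ y ∈ Y, ∀ y' ∈ Y, H ⊓ Subgroup.centralizer ({y} : Set Γ)
      = H ⊓ Subgroup.centralizer ({y'} : Set Γ) := by
  set L : Subgroup Γ := H ⊓ wl_setStab Y with hL
  have hDL : ∀ y ∈ Y, H ⊓ Subgroup.centralizer ({y} : Set Γ) ≤ L := by
    intro y hy h hh
    obtain ⟨hhH, hhC⟩ := (wl_mem_D H y h).1 hh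
    have hcomm : h * y = y * h := hhC.eq
    refine Subgroup.mem_inf.2 ⟨hhH, ?_⟩
    rw [wl_mem_setStab]
    intro y'
    constructor
    · intro hy'
      have hcomm' : h⁻¹ * y = y * h⁻¹ := hhC.inv_left.eq
      have h1 := hstab y hy h⁻¹ (H.inv_mem hhH) hcomm' _ hy'
      have e : h⁻¹ * (h * y' * h⁻¹) * h⁻¹⁻¹ = y' := by group
      rw [e] at h1
      exact h1
    · intro hy'
      exact hstab y hy h hhH hcomm y' hy'
  have hLY : ∀ l ∈ L, ∀ y ∈ Y, l * y * l⁻¹ ∈ Y := by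
    intro l hl y hy
    exact ((wl_mem_setStab Y l).1 (Subgroup.mem_inf.1 hl).2 y).2 hy
  have hcore := wl_core N H c hc L inf_le_left Y hYN hYcard hLY hDL
  intro y hy y' hy'
  rw [← hcore y hy, ← hcore y' hy']

/-- An `H`-invariant subgroup of `N` is trivial or all of `N`. -/
theorem wl_invariant
    (hc : ∀ x ∈ N, x ≠ 1 → Nat.card ↥(H ⊓ Subgroup.centralizer ({x} : Set Γ)) = c)
    (h2 : H ⊓ Subgroup.centralizer (N : Set Γ) = ⊥)
    (h3 : ∃ x₀ ∈ N, x₀ ≠ 1 ∧ H ⊓ Subgroup.centralizer ({x₀} : Set Γ) ≠ ⊥)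
    (K : Subgroup Γ) (hKN : K ≤ N) (hKH : ∀ h ∈ H, ∀ k ∈ K, h * k * h⁻¹ ∈ K) :
    K = ⊥ ∨ K = N := by
  by_contra hcon
  push Not at hcon
  obtain ⟨hKbot, hKne⟩ := hcon
  obtain ⟨⟨k₁, hk₁K⟩, hk₁'⟩ := (Subgroup.ne_bot_iff_exists_ne_one).1 hKbot
  have hk₁ : k₁ ≠ 1 := fun h => hk₁' (Subtype.ext h)
  obtain ⟨x₁, hx₁N, hx₁K⟩ := SetLike.exists_of_lt (lt_of_le_of_ne hKN hKne)
  have heq : ∀ x ∈ N, x ≠ 1 → ∀ y ∈ N, y ≠ 1 →
      H ⊓ Subgroup.centralizer ({x} : Set Γ) ≤ H ⊓ Subgroup.centralizer ({y} : Set Γ) →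
      H ⊓ Subgroup.centralizer ({x} : Set Γ) = H ⊓ Subgroup.centralizer ({y} : Set Γ) := by
    intro x hx hx1 y hy hy1 hle
    exact Subgroup.eq_of_le_of_card_ge hle (by rw [hc x hx hx1, hc y hy hy1])
  have step1 : ∀ x ∈ N, x ∉ K → ∀ k ∈ K, k ≠ 1 →
      H ⊓ Subgroup.centralizer ({x} : Set Γ) = H ⊓ Subgroup.centralizer ({k} : Set Γ) := by
    intro x hxN hxK k hkK hk1
    have hx1 : x ≠ 1 := fun h => hxK (h ▸ K.one_mem)
    set Y : Set Γ := (fun k : Γ => x * k) '' (K : Set Γ) with hY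
    have hYN : ∀ y ∈ Y, y ∈ N ∧ y ≠ 1 := by
      rintro y ⟨k', hk', rfl⟩
      refine ⟨N.mul_mem hxN (hKN hk'), ?_⟩
      intro h
      apply hxK
      have h5 : x = k'⁻¹ := eq_inv_of_mul_eq_one_left h
      rw [h5]
      exact K.inv_mem hk'
    have hYcard : Nat.card Y ∣ Nat.card N := by
      have h1 : Nat.card Y = Nat.card K := by
        rw [Nat.card_coe_set_eq, hY, Set.ncard_image_of_injective _ (mul_right_injective x),
          ← Nat.card_coe_set_eq]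
        rfl
      rw [h1]
      exact Subgroup.card_dvd_of_le hKN
    have hstab : ∀ y ∈ Y, ∀ h ∈ H, h * y = y * h → ∀ y' ∈ Y, h * y' * h⁻¹ ∈ Y := by
      rintro y ⟨k₀, hk₀, rfl⟩ h hh hcomm y' ⟨k', hk', rfl⟩
      refine ⟨k₀ * (h * (k₀⁻¹ * k') * h⁻¹),
        K.mul_mem hk₀ (hKH h hh _ (K.mul_mem (K.inv_mem hk₀) hk')), ?_⟩
      show x * (k₀ * (h * (k₀⁻¹ * k') * h⁻¹)) = h * (x * k') * h⁻¹
      have e1 : h * (x * k') * h⁻¹ = (h * (x * k₀)) * (k₀⁻¹ * k') * h⁻¹ := by group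
      have hcomm2 : h * (x * k₀) = x * k₀ * h := hcomm
      rw [e1, hcomm2]
      group
    have hcore := wl_core' N H c hc Y hYN hYcard hstab
    have hxY : x ∈ Y := ⟨1, K.one_mem, mul_one x⟩
    have hxkY : x * k ∈ Y := ⟨k, hkK, rfl⟩
    have e1 := hcore x hxY (x * k) hxkY
    apply heq x hxN hx1 k (hKN hkK) hk1
    intro h hh
    have hh2 : h ∈ H ⊓ Subgroup.centralizer ({x * k} : Set Γ) := by
      rw [← e1]
      exact hh
    rw [wl_mem_D] at hh hh2 ⊢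
    refine ⟨hh.1, ?_⟩
    have h5 := hh.2.inv_right.mul_right hh2.2
    rwa [inv_mul_cancel_left] at h5
  have step2 : ∀ y ∈ N, y ≠ 1 →
      H ⊓ Subgroup.centralizer ({y} : Set Γ) = H ⊓ Subgroup.centralizer ({k₁} : Set Γ) := by
    intro y hy hy1
    by_cases hyK : y ∈ K
    · rw [← step1 x₁ hx₁N hx₁K y hyK hy1, step1 x₁ hx₁N hx₁K k₁ hk₁K hk₁]
    · exact step1 y hy hyK k₁ hk₁K hk₁
  have step3 : H ⊓ Subgroup.centralizer ({k₁} : Set Γ) = ⊥ := by
    rw [eq_bot_iff, ← h2]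
    intro h hh
    refine Subgroup.mem_inf.2 ⟨(Subgroup.mem_inf.1 hh).1, ?_⟩
    rw [Subgroup.mem_centralizer_iff]
    intro n hn
    by_cases hn1 : n = 1
    · rw [hn1]
      simp
    · have h5 : h ∈ H ⊓ Subgroup.centralizer ({n} : Set Γ) := by
        rw [step2 n hn hn1]
        exact hh
      exact (Subgroup.mem_centralizer_iff.1 (Subgroup.mem_inf.1 h5).2) n rfl
  obtain ⟨x₀, hx₀N, hx₀1, hx₀⟩ := h3
  exact hx₀ ((step2 x₀ hx₀N hx₀1).trans step3)

/-- `N` is commutative. -/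
theorem wl_comm
    (hc : ∀ x ∈ N, x ≠ 1 → Nat.card ↥(H ⊓ Subgroup.centralizer ({x} : Set Γ)) = c)
    (h2 : H ⊓ Subgroup.centralizer (N : Set Γ) = ⊥)
    (h3 : ∃ x₀ ∈ N, x₀ ≠ 1 ∧ H ⊓ Subgroup.centralizer ({x₀} : Set Γ) ≠ ⊥) :
    ∀ x ∈ N, ∀ y ∈ N, x * y = y * x := by
  have heq : ∀ x ∈ N, x ≠ 1 → ∀ y ∈ N, y ≠ 1 →
      H ⊓ Subgroup.centralizer ({x} : Set Γ) ≤ H ⊓ Subgroup.centralizer ({y} : Set Γ) →
      H ⊓ Subgroup.centralizer ({x} : Set Γ) = H ⊓ Subgroup.centralizer ({y} : Set Γ) := by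
    intro x hx hx1 y hy hy1 hle
    exact Subgroup.eq_of_le_of_card_ge hle (by rw [hc x hx hx1, hc y hy hy1])
  have step0 : ∀ x ∈ N, x ≠ 1 → ∀ n ∈ N,
      H ⊓ Subgroup.centralizer ({x} : Set Γ)
        = H ⊓ Subgroup.centralizer ({n * x * n⁻¹} : Set Γ) := by
    intro x hxN hx1 n hn
    set Y : Set Γ := Set.range (fun m : ↥N => (m : Γ) * x * (m : Γ)⁻¹) with hY
    have hYN : ∀ y ∈ Y, y ∈ N ∧ y ≠ 1 := by
      rintro y ⟨m, rfl⟩
      refine ⟨N.mul_mem (N.mul_mem m.2 hxN) (N.inv_mem m.2), ?_⟩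
      intro h
      apply hx1
      have h5 : (m : Γ) * x * (m : Γ)⁻¹ = 1 := h
      have e : x = (m : Γ)⁻¹ * ((m : Γ) * x * (m : Γ)⁻¹) * (m : Γ) := by group
      rw [e, h5]
      simp
    have hYcard : Nat.card Y ∣ Nat.card N := by
      let _ : MulAction ↥N Γ :=
        MulAction.compHom Γ ((MulAut.conj : Γ →* MulAut Γ).comp N.subtype)
      have h1 : Y = MulAction.orbit ↥N x := rfl
      rw [h1]
      have h5 := Nat.card_congr (MulAction.orbitProdStabilizerEquivGroup ↥N x)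
      rw [Nat.card_prod] at h5
      exact Dvd.intro _ h5
    have hstab : ∀ y ∈ Y, ∀ h ∈ H, h * y = y * h → ∀ y' ∈ Y, h * y' * h⁻¹ ∈ Y := by
      rintro y ⟨m₀, rfl⟩ h hh hcomm y' ⟨m', rfl⟩
      refine ⟨⟨h * ((m' : Γ) * (m₀ : Γ)⁻¹) * h⁻¹ * (m₀ : Γ),
        N.mul_mem (hNn.conj_mem _ (N.mul_mem m'.2 (N.inv_mem m₀.2)) h) m₀.2⟩, ?_⟩
      show (h * ((m' : Γ) * (m₀ : Γ)⁻¹) * h⁻¹ * (m₀ : Γ)) * x
          * (h * ((m' : Γ) * (m₀ : Γ)⁻¹) * h⁻¹ * (m₀ : Γ))⁻¹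
        = h * ((m' : Γ) * x * (m' : Γ)⁻¹) * h⁻¹
      have hcomm2 : h * ((m₀ : Γ) * x * (m₀ : Γ)⁻¹) = (m₀ : Γ) * x * (m₀ : Γ)⁻¹ * h := hcomm
      have e2 : h⁻¹ * ((m₀ : Γ) * x * (m₀ : Γ)⁻¹) * h = (m₀ : Γ) * x * (m₀ : Γ)⁻¹ := by
        calc h⁻¹ * ((m₀ : Γ) * x * (m₀ : Γ)⁻¹) * h
            = h⁻¹ * (((m₀ : Γ) * x * (m₀ : Γ)⁻¹) * h) := by group
          _ = h⁻¹ * (h * ((m₀ : Γ) * x * (m₀ : Γ)⁻¹)) := by rw [hcomm2]
          _ = (m₀ : Γ) * x * (m₀ : Γ)⁻¹ := by group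
      calc (h * ((m' : Γ) * (m₀ : Γ)⁻¹) * h⁻¹ * (m₀ : Γ)) * x
            * (h * ((m' : Γ) * (m₀ : Γ)⁻¹) * h⁻¹ * (m₀ : Γ))⁻¹
          = h * ((m' : Γ) * (m₀ : Γ)⁻¹) * (h⁻¹ * ((m₀ : Γ) * x * (m₀ : Γ)⁻¹) * h)
            * ((m₀ : Γ) * (m' : Γ)⁻¹) * h⁻¹ := by group
        _ = h * ((m' : Γ) * (m₀ : Γ)⁻¹) * ((m₀ : Γ) * x * (m₀ : Γ)⁻¹)
            * ((m₀ : Γ) * (m' : Γ)⁻¹) * h⁻¹ := by rw [e2]
        _ = h * ((m' : Γ) * x * (m' : Γ)⁻¹) * h⁻¹ := by group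
    have hcore := wl_core' N H c hc Y hYN hYcard hstab
    have hxY : x ∈ Y := ⟨1, by simp⟩
    have hnY : n * x * n⁻¹ ∈ Y := ⟨⟨n, hn⟩, rfl⟩
    exact hcore x hxY _ hnY
  have B1 : ∀ x ∈ N, x ≠ 1 → ∀ y ∈ N, y ≠ 1 →
      H ⊓ Subgroup.centralizer ({x} : Set Γ) ≠ H ⊓ Subgroup.centralizer ({y} : Set Γ) →
      x * y = y * x := by
    intro x hx hx1 y hy hy1 hne
    by_contra hxy
    have hwN : x * y * x⁻¹ * y⁻¹ ∈ N :=
      N.mul_mem (N.mul_mem (N.mul_mem hx hy) (N.inv_mem hx)) (N.inv_mem hy)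
    have hw1 : x * y * x⁻¹ * y⁻¹ ≠ 1 := by
      intro h
      apply hxy
      have h5 : x * y = (x * y * x⁻¹ * y⁻¹) * (y * x) := by group
      rw [h5, h, one_mul]
    have hyw : H ⊓ Subgroup.centralizer ({y} : Set Γ)
        ≤ H ⊓ Subgroup.centralizer ({x * y * x⁻¹ * y⁻¹} : Set Γ) := by
      intro h hh
      have hh' : h ∈ H ⊓ Subgroup.centralizer ({x * y * x⁻¹} : Set Γ) := by
        rw [← step0 y hy hy1 x hx]
        exact hh
      rw [wl_mem_D] at hh hh' ⊢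
      exact ⟨hh.1, hh'.2.mul_right hh.2.inv_right⟩
    have hxw : H ⊓ Subgroup.centralizer ({x} : Set Γ)
        ≤ H ⊓ Subgroup.centralizer ({x * y * x⁻¹ * y⁻¹} : Set Γ) := by
      intro h hh
      have hh' : h ∈ H ⊓ Subgroup.centralizer ({y * x * y⁻¹} : Set Γ) := by
        rw [← step0 x hx hx1 y hy]
        exact hh
      rw [wl_mem_D] at hh hh' ⊢
      refine ⟨hh.1, ?_⟩
      have h5 := hh.2.mul_right hh'.2.inv_right
      have e : x * (y * x * y⁻¹)⁻¹ = x * y * x⁻¹ * y⁻¹ := by group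
      rwa [e] at h5
    exact hne ((heq x hx hx1 _ hwN hw1 hxw).trans (heq y hy hy1 _ hwN hw1 hyw).symm)
  intro x hx y hy
  by_cases hx1 : x = 1
  · rw [hx1]
    simp
  by_cases hy1 : y = 1
  · rw [hy1]
    simp
  by_cases hD : H ⊓ Subgroup.centralizer ({x} : Set Γ) = H ⊓ Subgroup.centralizer ({y} : Set Γ)
  swap
  · exact B1 x hx hx1 y hy hy1 hD
  have hz : ∃ z ∈ N, z ≠ 1 ∧
      H ⊓ Subgroup.centralizer ({z} : Set Γ) ≠ H ⊓ Subgroup.centralizer ({x} : Set Γ) := by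
    by_contra hcon
    push Not at hcon
    have h5 : H ⊓ Subgroup.centralizer ({x} : Set Γ) = ⊥ := by
      rw [eq_bot_iff, ← h2]
      intro h hh
      refine Subgroup.mem_inf.2 ⟨(Subgroup.mem_inf.1 hh).1, ?_⟩
      rw [Subgroup.mem_centralizer_iff]
      intro n hn
      by_cases hn1 : n = 1
      · rw [hn1]
        simp
      · have h6 : h ∈ H ⊓ Subgroup.centralizer ({n} : Set Γ) := by
          rw [hcon n hn hn1]
          exact hh
        exact (Subgroup.mem_centralizer_iff.1 (Subgroup.mem_inf.1 h6).2) n rfl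
    obtain ⟨x₀, hx₀N, hx₀1, hx₀⟩ := h3
    exact hx₀ ((hcon x₀ hx₀N hx₀1).trans h5)
  obtain ⟨z, hzN, hz1, hzD⟩ := hz
  have czx : z * x = x * z := B1 z hzN hz1 x hx hx1 hzD
  have czy : z * y = y * z := B1 z hzN hz1 y hy hy1 (hD ▸ hzD)
  by_cases hxz : x * z = 1
  · have hzx : z = x⁻¹ := eq_inv_of_mul_eq_one_right hxz
    rw [hzx] at czy
    calc x * y = x * (y * x⁻¹) * x := by group
      _ = x * (x⁻¹ * y) * x := by rw [czy]
      _ = y * x := by group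
  · have hxzN : x * z ∈ N := N.mul_mem hx hzN
    have hne : H ⊓ Subgroup.centralizer ({x * z} : Set Γ)
        ≠ H ⊓ Subgroup.centralizer ({y} : Set Γ) := by
      intro h
      apply hzD
      symm
      apply heq x hx hx1 z hzN hz1
      intro g hg
      have hg2 : g ∈ H ⊓ Subgroup.centralizer ({x * z} : Set Γ) := by
        rw [h, ← hD]
        exact hg
      rw [wl_mem_D] at hg hg2 ⊢
      refine ⟨hg.1, ?_⟩
      have h5 := hg.2.inv_right.mul_right hg2.2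
      rwa [inv_mul_cancel_left] at h5
    have c3 : x * z * y = y * (x * z) := B1 (x * z) hxzN hxz y hy hy1 hne
    apply mul_right_cancel (b := z)
    calc x * y * z = x * (y * z) := by group
      _ = x * (z * y) := by rw [czy]
      _ = x * z * y := by group
      _ = y * (x * z) := c3
      _ = y * x * z := by group

/-- The main internal statement: `N` is elementary abelian and is contained in every nontrivial
normal subgroup. -/
theorem wl_main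
    (hc : ∀ x ∈ N, x ≠ 1 → Nat.card ↥(H ⊓ Subgroup.centralizer ({x} : Set Γ)) = c)
    (h2 : H ⊓ Subgroup.centralizer (N : Set Γ) = ⊥)
    (h3 : ∃ x₀ ∈ N, x₀ ≠ 1 ∧ H ⊓ Subgroup.centralizer ({x₀} : Set Γ) ≠ ⊥)
    (h4 : ∀ g : Γ, ∃ n ∈ N, n⁻¹ * g ∈ H) :
    (∃ p : ℕ, p.Prime ∧ (∀ x ∈ N, ∀ y ∈ N, x * y = y * x) ∧ ∀ x ∈ N, x ^ p = 1) ∧
    (∀ M : Subgroup Γ, M.Normal → M ≠ ⊥ → N ≤ M) := by
  have hcomm := wl_comm N H c hc h2 h3
  have hinv := wl_invariant N H c hc h2 h3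
  constructor
  · obtain ⟨x₀, hx₀N, hx₀1, _⟩ := h3
    have hcard : Nat.card N ≠ 1 := by
      intro h
      have h5 := Subgroup.card_eq_one.1 h
      rw [h5] at hx₀N
      exact hx₀1 (Subgroup.mem_bot.1 hx₀N)
    have hpp : (Nat.card N).minFac.Prime := Nat.minFac_prime hcard
    have : Fact (Nat.card N).minFac.Prime := ⟨hpp⟩
    obtain ⟨g, hg⟩ := exists_prime_orderOf_dvd_card' (G := ↥N) (Nat.card N).minFac
      (Nat.minFac_dvd _)
    let K : Subgroup Γ :=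
      { carrier := {x | x ∈ N ∧ x ^ (Nat.card N).minFac = 1}
        one_mem' := ⟨N.one_mem, one_pow _⟩
        mul_mem' := fun {a b} ha hb => ⟨N.mul_mem ha.1 hb.1, by
          have hc' : Commute a b := hcomm a ha.1 b hb.1
          rw [hc'.mul_pow, ha.2, hb.2, one_mul]⟩
        inv_mem' := fun {a} ha => ⟨N.inv_mem ha.1, by rw [inv_pow, ha.2, inv_one]⟩ }
    have hKN : K ≤ N := fun x hx => hx.1
    have hKH : ∀ h ∈ H, ∀ k ∈ K, h * k * h⁻¹ ∈ K := by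
      intro h _ k hk
      refine ⟨hNn.conj_mem k hk.1 h, ?_⟩
      rw [conj_pow, hk.2]
      simp
    rcases hinv K hKN hKH with hK | hK
    · exfalso
      have hgK : (g : Γ) ∈ K := ⟨g.2, by
        have h5 := pow_orderOf_eq_one g
        rw [hg] at h5
        have h6 := congrArg Subtype.val h5
        simpa using h6⟩
      rw [hK, Subgroup.mem_bot] at hgK
      have h7 : g = 1 := Subtype.ext hgK
      rw [h7, orderOf_one] at hg
      exact hpp.one_lt.ne hg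
    · refine ⟨(Nat.card N).minFac, hpp, hcomm, fun x hx => ?_⟩
      have h5 : x ∈ K := by
        rw [hK]
        exact hx
      exact h5.2
  · intro M hM hMbot
    have hKN : M ⊓ N ≤ N := inf_le_right
    have hKH : ∀ h ∈ H, ∀ k ∈ M ⊓ N, h * k * h⁻¹ ∈ M ⊓ N := by
      intro h _ k hk
      exact Subgroup.mem_inf.2 ⟨hM.conj_mem k (Subgroup.mem_inf.1 hk).1 h,
        hNn.conj_mem k (Subgroup.mem_inf.1 hk).2 h⟩
    rcases hinv (M ⊓ N) hKN hKH with hK | hK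
    · exfalso
      obtain ⟨⟨m, hmM⟩, hm1'⟩ := (Subgroup.ne_bot_iff_exists_ne_one).1 hMbot
      have hm1 : m ≠ 1 := fun h => hm1' (Subtype.ext h)
      have hMN : ∀ n ∈ N, m * n = n * m := by
        intro n hn
        have h5 : m * n * m⁻¹ * n⁻¹ ∈ M ⊓ N := by
          refine Subgroup.mem_inf.2 ⟨?_, ?_⟩
          · have e : m * n * m⁻¹ * n⁻¹ = m * (n * m⁻¹ * n⁻¹) := by group
            rw [e]
            exact M.mul_mem hmM (hM.conj_mem _ (M.inv_mem hmM) n)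
          · exact N.mul_mem (hNn.conj_mem n hn m) (N.inv_mem hn)
        rw [hK, Subgroup.mem_bot] at h5
        calc m * n = (m * n * m⁻¹ * n⁻¹) * (n * m) := by group
          _ = n * m := by rw [h5, one_mul]
      obtain ⟨n, hn, hnH⟩ := h4 m
      have h6 : n⁻¹ * m ∈ H ⊓ Subgroup.centralizer (N : Set Γ) := by
        refine Subgroup.mem_inf.2 ⟨hnH, ?_⟩
        rw [Subgroup.mem_centralizer_iff]
        intro n' hn'
        have c1 : n' * n⁻¹ = n⁻¹ * n' := hcomm n' hn' n⁻¹ (N.inv_mem hn)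
        calc n' * (n⁻¹ * m) = (n' * n⁻¹) * m := by group
          _ = (n⁻¹ * n') * m := by rw [c1]
          _ = n⁻¹ * (n' * m) := by group
          _ = n⁻¹ * (m * n') := by rw [hMN n' hn']
          _ = n⁻¹ * m * n' := by group
      rw [h2, Subgroup.mem_bot] at h6
      have hmn : m = n := by
        calc m = n * (n⁻¹ * m) := by group
          _ = n := by rw [h6, mul_one]
      have h7 : m ∈ M ⊓ N := Subgroup.mem_inf.2 ⟨hmM, hmn ▸ hn⟩
      rw [hK, Subgroup.mem_bot] at h7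
      exact hm1 h7
    · rw [← hK]
      exact inf_le_left

end

end Cfsg.Agent.Lib.Helper50
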