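import Mathlib
import Cfsg.Agent.Lib.Helper52.SameOrder
import Cfsg.Agent.S4004
import Cfsg.Agent.S0144

/-!
Groups whose same-order counts take exactly three values are solvable (helper50).
Odd order: landed S4004 + Burnside.  Even order: Frobenius congruences.
-/

set_option autoImplicit false

namespace Cfsg.Agent.Lib.Helper50.Nse3

open Cfsg.Agent.Lib.Helper52

universe u

/-! ### arithmetic -/

theorem zmod_two_ne {p : ℕ} (hp : p.Prime) (hp2 : p ≠ 2) : (2 : ZMod p) ≠ 0 := by
  intro h
  have h' : ((2 : ℕ) : ZMod p) = 0 := by exact_mod_cast h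
  rw [ZMod.natCast_eq_zero_iff] at h'
  exact hp2 ((Nat.prime_dvd_prime_iff_eq hp Nat.prime_two).mp h')

theorem zmod_one_ne {p : ℕ} (hp : p.Prime) : (1 : ZMod p) ≠ 0 := by
  have : Fact p.Prime := ⟨hp⟩
  exact one_ne_zero

theorem core2 {p q : ℕ} (hp : p.Prime) (hp2 : p ≠ 2) (n cpq : ℕ) (hp1 : p ∣ 1 + n)
    (hpq1 : p * q ∣ 1 + n + n + cpq) (v : cpq = 0 ∨ cpq = n) : False := by
  have e1 : ((1 + n : ℕ) : ZMod p) = 0 := (ZMod.natCast_eq_zero_iff _ _).mpr hp1
  have e2 : ((1 + n + n + cpq : ℕ) : ZMod p) = 0 :=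
    (ZMod.natCast_eq_zero_iff _ _).mpr ((dvd_mul_right p q).trans hpq1)
  rcases v with h | h
  · rw [h] at e2
    push_cast at e1 e2
    exact zmod_one_ne hp (by linear_combination 2 * e1 - e2)
  · rw [h] at e2
    push_cast at e1 e2
    exact zmod_two_ne hp hp2 (by linear_combination 3 * e1 - e2)

theorem core1a {p q : ℕ} (hp : p.Prime) (hq : q.Prime) (hp2 : p ≠ 2) (hq2 : q ≠ 2)
    (u w cp cq cpq c4p c4q c4pq : ℕ)
    (hu4 : 4 ∣ 2 + u)
    (hp1 : p ∣ 1 + cp) (hq1 : q ∣ 1 + cq)
    (hpq1 : p * q ∣ 1 + cp + cq + cpq)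
    (h4p : 4 * p ∣ 2 + u + 2 * cp + c4p) (h4q : 4 * q ∣ 2 + u + 2 * cq + c4q)
    (h4pq : 4 * (p * q) ∣ (2 + u) + (2 * cp + c4p) + (2 * cq + c4q) + (2 * cpq + c4pq))
    (ecp : Even cp) (ecq : Even cq) (ecpq : Even cpq)
    (vcp : cp = u ∨ cp = w) (vcq : cq = u ∨ cq = w)
    (vcpq : cpq = 0 ∨ cpq = u ∨ cpq = w)
    (vc4p : c4p = 0 ∨ c4p = u ∨ c4p = w) (vc4q : c4q = 0 ∨ c4q = u ∨ c4q = w)
    (vc4pq : c4pq = 0 ∨ c4pq = u ∨ c4pq = w) : False := by
  -- mod 4
  have m1 : 4 ∣ 2 + u + 2 * cp + c4p := (dvd_mul_right 4 p).trans h4p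
  have m2 : 4 ∣ 2 + u + 2 * cq + c4q := (dvd_mul_right 4 q).trans h4q
  have m3 : 4 ∣ (2 + u) + (2 * cp + c4p) + (2 * cq + c4q) + (2 * cpq + c4pq) :=
    (dvd_mul_right 4 (p * q)).trans h4pq
  obtain ⟨a1, ha1⟩ := ecp
  obtain ⟨a2, ha2⟩ := ecq
  obtain ⟨a3, ha3⟩ := ecpq
  have x4p : c4p = 0 ∨ c4p = w := by
    rcases vc4p with h | h | h
    · exact Or.inl h
    · exfalso; omega
    · exact Or.inr h
  have x4q : c4q = 0 ∨ c4q = w := by
    rcases vc4q with h | h | h
    · exact Or.inl h
    · exfalso; omega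
    · exact Or.inr h
  have x4pq : c4pq = 0 ∨ c4pq = w := by
    rcases vc4pq with h | h | h
    · exact Or.inl h
    · exfalso; omega
    · exact Or.inr h
  -- mod p
  have P1 : (cp : ZMod p) = -1 := by
    have := (ZMod.natCast_eq_zero_iff (1 + cp) p).mpr hp1
    push_cast at this
    linear_combination this
  have P2 : (u : ZMod p) + c4p = 0 := by
    have := (ZMod.natCast_eq_zero_iff (2 + u + 2 * cp + c4p) p).mpr ((dvd_mul_left p 4).trans h4p)
    push_cast at this
    linear_combination this - 2 * P1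
  have P3 : (cq : ZMod p) + cpq = 0 := by
    have := (ZMod.natCast_eq_zero_iff (1 + cp + cq + cpq) p).mpr ((dvd_mul_right p q).trans hpq1)
    push_cast at this
    linear_combination this - P1
  have P4 : (c4q : ZMod p) + c4pq = 0 := by
    have hd : p ∣ 4 * (p * q) := Dvd.intro (4 * q) (by ring)
    have := (ZMod.natCast_eq_zero_iff _ p).mpr (hd.trans h4pq)
    push_cast at this
    linear_combination this - 2 * P1 - P2 - 2 * P3
  -- mod q
  have Q1 : (cq : ZMod q) = -1 := by
    have := (ZMod.natCast_eq_zero_iff (1 + cq) q).mpr hq1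
    push_cast at this
    linear_combination this
  have Q2 : (u : ZMod q) + c4q = 0 := by
    have := (ZMod.natCast_eq_zero_iff (2 + u + 2 * cq + c4q) q).mpr ((dvd_mul_left q 4).trans h4q)
    push_cast at this
    linear_combination this - 2 * Q1
  have Q3 : (cp : ZMod q) + cpq = 0 := by
    have := (ZMod.natCast_eq_zero_iff (1 + cp + cq + cpq) q).mpr ((dvd_mul_left q p).trans hpq1)
    push_cast at this
    linear_combination this - Q1
  have Q4 : (c4p : ZMod q) + c4pq = 0 := by
    have hd : q ∣ 4 * (p * q) := Dvd.intro (4 * p) (by ring)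
    have := (ZMod.natCast_eq_zero_iff _ q).mpr (hd.trans h4pq)
    push_cast at this
    linear_combination this - 2 * Q1 - Q2 - 2 * Q3
  have p1 := zmod_one_ne hp
  have p2 := zmod_two_ne hp hp2
  have q1 := zmod_one_ne hq
  have q2 := zmod_two_ne hq hq2
  rcases vcp with hcp | hcp <;> rcases vcq with hcq | hcq
  · -- UU
    rw [hcp] at P1
    rw [hcq] at Q1
    have h4pw : c4p = w := by
      rcases x4p with h | h
      · rw [h] at P2; push_cast at P2
        exact absurd (by linear_combination P1 - P2) p1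
      · exact h
    have h4qw : c4q = w := by
      rcases x4q with h | h
      · rw [h] at Q2; push_cast at Q2
        exact absurd (by linear_combination Q1 - Q2) q1
      · exact h
    rw [h4pw] at P2
    have W1 : (w : ZMod p) = 1 := by linear_combination P2 - P1
    rw [h4qw] at P4
    rcases x4pq with h | h
    · rw [h] at P4; push_cast at P4
      exact absurd (by linear_combination P4 - W1) p1
    · rw [h] at P4
      exact absurd (by linear_combination P4 - 2 * W1) p2
  · -- UW
    rw [hcp] at P1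
    rw [hcq] at Q1
    have h4pw : c4p = w := by
      rcases x4p with h | h
      · rw [h] at P2; push_cast at P2
        exact absurd (by linear_combination P1 - P2) p1
      · exact h
    rw [h4pw] at Q4
    rcases x4pq with h | h
    · rw [h] at Q4; push_cast at Q4
      exact absurd (by linear_combination Q1 - Q4) q1
    · rw [h] at Q4
      exact absurd (by linear_combination 2 * Q1 - Q4) q2
  · -- WU
    rw [hcp] at P1
    rw [hcq] at Q1
    have h4qw : c4q = w := by
      rcases x4q with h | h
      · rw [h] at Q2; push_cast at Q2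
        exact absurd (by linear_combination Q1 - Q2) q1
      · exact h
    rw [h4qw] at P4
    rcases x4pq with h | h
    · rw [h] at P4; push_cast at P4
      exact absurd (by linear_combination P1 - P4) p1
    · rw [h] at P4
      exact absurd (by linear_combination 2 * P1 - P4) p2
  · -- WW
    rw [hcp] at P1 Q3
    rw [hcq] at Q1 P3
    have hcpqu : cpq = u := by
      rcases vcpq with h | h | h
      · rw [h] at P3; push_cast at P3
        exact absurd (by linear_combination P1 - P3) p1
      · exact h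
      · rw [h] at P3
        exact absurd (by linear_combination 2 * P1 - P3) p2
    rw [hcpqu] at P3 Q3
    have U1q : (u : ZMod q) = 1 := by linear_combination Q3 - Q1
    have h4qw : c4q = w := by
      rcases x4q with h | h
      · rw [h] at Q2; push_cast at Q2
        exact absurd (by linear_combination Q2 - U1q) q1
      · exact h
    rw [h4qw] at P4
    rcases x4pq with h | h
    · rw [h] at P4; push_cast at P4
      exact absurd (by linear_combination P1 - P4) p1
    · rw [h] at P4
      exact absurd (by linear_combination 2 * P1 - P4) p2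

/-! ### sums over divisors -/

theorem sum_div_prime {p : ℕ} (hp : p.Prime) (f : ℕ → ℕ) :
    ∑ d ∈ p.divisors, f d = f 1 + f p := by
  rw [hp.divisors, Finset.sum_pair hp.one_lt.ne]

theorem sum_div_four (f : ℕ → ℕ) : ∑ d ∈ (4 : ℕ).divisors, f d = f 1 + f 2 + f 4 := by
  have h : (4 : ℕ).divisors = {1, 2, 4} := by decide
  rw [h, Finset.sum_insert (by decide), Finset.sum_pair (by decide)]
  ring

theorem sum_div_pq {p q : ℕ} (hp : p.Prime) (hq : q.Prime) (hpq : p ≠ q) (f : ℕ → ℕ) :
    ∑ d ∈ (p * q).divisors, f d = f 1 + f q + f p + f (p * q) := by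
  rw [sum_divisors_mul_coprime ((Nat.coprime_primes hp hq).mpr hpq), sum_div_prime hp,
    sum_div_prime hq, sum_div_prime hq]
  simp only [one_mul, mul_one]
  ring

theorem sum_div_four_mul {m : ℕ} (hm : Nat.Coprime 4 m) (f : ℕ → ℕ) :
    ∑ d ∈ (4 * m).divisors, f d =
      ∑ y ∈ m.divisors, f y + ∑ y ∈ m.divisors, f (2 * y) + ∑ y ∈ m.divisors, f (4 * y) := by
  rw [sum_divisors_mul_coprime hm, sum_div_four]
  simp only [one_mul]

theorem coprime_four {p : ℕ} (hp : p.Prime) (hp2 : p ≠ 2) : Nat.Coprime 4 p := by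
  have h : Nat.Coprime 2 p := (Nat.coprime_primes Nat.prime_two hp).mpr (Ne.symm hp2)
  have := h.pow_left 2
  norm_num at this
  exact this

/-! ### group theory -/

section grp
variable {G : Type u} [Group G] [Finite G]

/-- counts of elements of order `d ≥ 3` are even -/
theorem even_ordCount {d : ℕ} (hd : 3 ≤ d) : Even (ordCount G d) := by
  classical
  unfold ordCount
  have := Fintype.ofFinite G
  rw [Nat.card_eq_fintype_card]
  let σ : Equiv.Perm {g : G // orderOf g = d} :=
    { toFun := fun g => ⟨g.1⁻¹, by rw [orderOf_inv]; exact g.2⟩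
      invFun := fun g => ⟨g.1⁻¹, by rw [orderOf_inv]; exact g.2⟩
      left_inv := fun g => Subtype.ext (inv_inv _)
      right_inv := fun g => Subtype.ext (inv_inv _) }
  have hσ : σ ^ 2 = 1 := by
    ext g
    simp [σ, pow_two]
  have hsupp : σ.support = Finset.univ := by
    ext g
    simp only [Equiv.Perm.mem_support, Finset.mem_univ, iff_true]
    intro h
    have h2 : g.1⁻¹ = g.1 := congrArg Subtype.val h
    have h3 : g.1 ^ 2 = 1 := by
      rw [pow_two]
      nth_rewrite 1 [← h2]
      exact inv_mul_cancel _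
    have h4 : orderOf g.1 ∣ 2 := orderOf_dvd_of_pow_eq_one h3
    have h5 := Nat.le_of_dvd (by norm_num) h4
    rw [g.2] at h5
    omega
  have h2 := Equiv.Perm.two_dvd_card_support hσ
  rw [hsupp, Finset.card_univ] at h2
  exact even_iff_two_dvd.mpr h2

/-- a unique involution is central -/
theorem exists_central_invol (h2 : ordCount G 2 = 1) :
    ∃ z : G, orderOf z = 2 ∧ (∀ g : G, orderOf g = 2 → g = z) ∧ ∀ g : G, g * z = z * g := by
  unfold ordCount at h2
  obtain ⟨hs, ⟨⟨z, hz⟩⟩⟩ := Nat.card_eq_one_iff_unique.mp h2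
  have huniq : ∀ g : G, orderOf g = 2 → g = z := fun g hg =>
    congrArg Subtype.val (Subsingleton.elim (⟨g, hg⟩ : {g : G // orderOf g = 2}) ⟨z, hz⟩)
  refine ⟨z, hz, huniq, fun g => ?_⟩
  have h1 : orderOf (g * z * g⁻¹) = 2 := by
    have := orderOf_injective (MulAut.conj g).toMonoidHom (MulAut.conj g).injective z
    rw [MulEquiv.coe_toMonoidHom, MulAut.conj_apply] at this
    rw [this, hz]
  have h3 := huniq _ h1
  calc g * z = g * z * g⁻¹ * g := by group
    _ = z * g := by rw [h3]

theorem ordCount_two_mul (h2 : ordCount G 2 = 1) {k : ℕ} (hk : Odd k) :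
    ordCount G (2 * k) = ordCount G k := by
  obtain ⟨z, hz, huniq, hzc⟩ := exists_central_invol h2
  have hzz : z * z = 1 := by
    have := pow_orderOf_eq_one z
    rw [hz, pow_two] at this
    exact this
  have hA : ∀ (g : G) (j : ℕ), Odd j → orderOf g = j → orderOf (z * g) = 2 * j := by
    intro g j hj hg
    have hc : Commute z g := (hzc g).symm
    have hcop : Nat.Coprime (orderOf z) (orderOf g) := by
      rw [hz, hg]
      exact Nat.coprime_two_left.mpr hj
    rw [hc.orderOf_mul_eq_mul_orderOf_of_coprime hcop, hz, hg]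
  have hB : ∀ (h : G), orderOf h = 2 * k → orderOf (z * h) = k := by
    intro h hh
    have hk0 : 0 < k := hk.pos
    have h1 : orderOf (h ^ k) = 2 := by
      rw [orderOf_pow' h hk0.ne', hh, Nat.gcd_eq_right (dvd_mul_left k 2),
        Nat.mul_div_cancel _ hk0]
    have h2' : h ^ k = z := huniq _ h1
    have hc : Commute z h := (hzc h).symm
    have h3 : (z * h) ^ k = 1 := by
      rw [hc.mul_pow, h2']
      obtain ⟨t, rfl⟩ := hk
      rw [pow_succ, pow_mul, pow_two, hzz, one_pow, one_mul, hzz]
    have h4 : orderOf (z * h) ∣ k := orderOf_dvd_of_pow_eq_one h3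
    have h5 : Odd (orderOf (z * h)) := hk.of_dvd_nat h4
    have h6 := hA (z * h) _ h5 rfl
    rw [← mul_assoc, hzz, one_mul, hh] at h6
    omega
  unfold ordCount
  refine (Nat.card_congr ?_).symm
  refine (Equiv.mulLeft z).subtypeEquiv (fun g => ?_)
  show orderOf g = k ↔ orderOf (z * g) = 2 * k
  constructor
  · exact hA g k hk
  · intro h
    have := hB (z * g) h
    rwa [← mul_assoc, hzz, one_mul] at this

end grp

/-! ### the value set -/

theorem third {V : Set ℕ} (hV : V.ncard = 3) {a b : ℕ} (ha : a ∈ V) (hb : b ∈ V) (hab : a ≠ b) :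
    ∃ w, w ≠ a ∧ w ≠ b ∧ ∀ v ∈ V, v = a ∨ v = b ∨ v = w := by
  obtain ⟨x, y, z, hxy, hxz, hyz, rfl⟩ := Set.ncard_eq_three.mp hV
  simp only [Set.mem_insert_iff, Set.mem_singleton_iff] at ha hb ⊢
  rcases ha with rfl | rfl | rfl <;> rcases hb with rfl | rfl | rfl
  all_goals first
    | exact absurd rfl hab
    | exact ⟨z, by omega, by omega, fun v hv => by omega⟩
    | exact ⟨y, by omega, by omega, fun v hv => by omega⟩
    | exact ⟨x, by omega, by omega, fun v hv => by omega⟩

theorem pf_card_le_two {N : ℕ}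
    (h : ∀ p q : ℕ, p.Prime → q.Prime → p ≠ 2 → q ≠ 2 → p ≠ q → p ∣ N → q ∣ N → False) :
    N.primeFactors.card ≤ 2 := by
  by_contra hc
  have hc' : 2 < N.primeFactors.card := by omega
  obtain ⟨a, ha, b, hb, c, hc2, hab, hac, hbc⟩ := Finset.two_lt_card.mp hc'
  rw [Nat.mem_primeFactors] at ha hb hc2
  by_cases ha2 : a = 2
  · exact h b c hb.1 hc2.1 (fun e => hab (ha2.trans e.symm)) (fun e => hac (ha2.trans e.symm)) hbc
      hb.2.1 hc2.2.1
  · by_cases hb2 : b = 2
    · exact h a c ha.1 hc2.1 ha2 (fun e => hbc (hb2.trans e.symm)) hac ha.2.1 hc2.2.1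
    · exact h a b ha.1 hb.1 ha2 hb2 hab ha.2.1 hb.2.1

theorem solvable_of_pf {G : Type u} [Group G] [Finite G]
    (h : (Nat.card G).primeFactors.card ≤ 2) : Group.IsSolvable G := by
  have hN : Nat.card G ≠ 0 := Nat.card_pos.ne'
  have hprod : ∏ p ∈ (Nat.card G).primeFactors, p ^ (Nat.card G).factorization p = Nat.card G :=
    Nat.factorization_prod_pow_eq_self hN
  rcases Nat.lt_or_ge (Nat.card G).primeFactors.card 1 with h0 | h1
  · have he : (Nat.card G).primeFactors = ∅ := Finset.card_eq_zero.mp (by omega)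
    rw [he, Finset.prod_empty] at hprod
    exact Cfsg.Agent.S0144.result 2 3 0 0 Nat.prime_two Nat.prime_three (by rw [← hprod]; norm_num)
  · rcases Nat.lt_or_ge (Nat.card G).primeFactors.card 2 with h1' | h2
    · obtain ⟨p, hp⟩ := Finset.card_eq_one.mp (by omega : (Nat.card G).primeFactors.card = 1)
      have hpp : p.Prime := by
        have : p ∈ (Nat.card G).primeFactors := by rw [hp]; exact Finset.mem_singleton_self p
        exact (Nat.mem_primeFactors.mp this).1
      rw [hp, Finset.prod_singleton] at hprod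
      exact Cfsg.Agent.S0144.result p 2 ((Nat.card G).factorization p) 0 hpp Nat.prime_two
        (by rw [pow_zero, mul_one]; exact hprod.symm)
    · obtain ⟨p, q, hpq, hs⟩ := Finset.card_eq_two.mp (by omega : (Nat.card G).primeFactors.card = 2)
      have hpp : p.Prime := by
        have : p ∈ (Nat.card G).primeFactors := by rw [hs]; simp
        exact (Nat.mem_primeFactors.mp this).1
      have hqq : q.Prime := by
        have : q ∈ (Nat.card G).primeFactors := by rw [hs]; simp
        exact (Nat.mem_primeFactors.mp this).1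
      rw [hs, Finset.prod_pair hpq] at hprod
      exact Cfsg.Agent.S0144.result p q ((Nat.card G).factorization p)
        ((Nat.card G).factorization q) hpp hqq hprod.symm

/-! ### Frobenius congruences for the counts -/

section main
variable {G : Type u} [Group G] [Finite G]

theorem frob_prime {p : ℕ} (hp : p.Prime) (hpN : p ∣ Nat.card G) : p ∣ 1 + ordCount G p := by
  have h := dvd_sum_ordCount (G := G) p hpN
  rw [sum_div_prime hp (ordCount G), ordCount_one] at h
  exact h

theorem frob_four (h4 : 4 ∣ Nat.card G) : 4 ∣ 1 + ordCount G 2 + ordCount G 4 := by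
  have h := dvd_sum_ordCount (G := G) 4 h4
  rw [sum_div_four (ordCount G), ordCount_one] at h
  exact h

theorem frob_pq {p q : ℕ} (hp : p.Prime) (hq : q.Prime) (hpq : p ≠ q) (hpN : p ∣ Nat.card G)
    (hqN : q ∣ Nat.card G) :
    p * q ∣ 1 + ordCount G q + ordCount G p + ordCount G (p * q) := by
  have hd : p * q ∣ Nat.card G :=
    ((Nat.coprime_primes hp hq).mpr hpq).mul_dvd_of_dvd_of_dvd hpN hqN
  have h := dvd_sum_ordCount (G := G) (p * q) hd
  rw [sum_div_pq hp hq hpq (ordCount G), ordCount_one] at h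
  exact h

theorem frob_four_p (h21 : ordCount G 2 = 1) {p : ℕ} (hp : p.Prime) (hp2 : p ≠ 2)
    (h4 : 4 ∣ Nat.card G) (hpN : p ∣ Nat.card G) :
    4 * p ∣ 2 + ordCount G 4 + 2 * ordCount G p + ordCount G (4 * p) := by
  have hc := coprime_four hp hp2
  have hd : 4 * p ∣ Nat.card G := hc.mul_dvd_of_dvd_of_dvd h4 hpN
  have h := dvd_sum_ordCount (G := G) (4 * p) hd
  rw [sum_div_four_mul hc (ordCount G), sum_div_prime hp (ordCount G),
    sum_div_prime hp (fun y => ordCount G (2 * y)),
    sum_div_prime hp (fun y => ordCount G (4 * y))] at h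
  simp only [mul_one] at h
  rw [ordCount_one, h21, ordCount_two_mul h21 (hp.odd_of_ne_two hp2)] at h
  have e : 2 + ordCount G 4 + 2 * ordCount G p + ordCount G (4 * p) =
      1 + ordCount G p + (1 + ordCount G p) + (ordCount G 4 + ordCount G (4 * p)) := by ring
  rw [e]
  exact h

theorem frob_four_pq (h21 : ordCount G 2 = 1) {p q : ℕ} (hp : p.Prime) (hq : q.Prime)
    (hp2 : p ≠ 2) (hq2 : q ≠ 2) (hpq : p ≠ q)
    (h4 : 4 ∣ Nat.card G) (hpN : p ∣ Nat.card G) (hqN : q ∣ Nat.card G) :
    4 * (p * q) ∣ (2 + ordCount G 4) + (2 * ordCount G p + ordCount G (4 * p)) +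
      (2 * ordCount G q + ordCount G (4 * q)) +
      (2 * ordCount G (p * q) + ordCount G (4 * (p * q))) := by
  have hc : Nat.Coprime 4 (p * q) := (coprime_four hp hp2).mul_right (coprime_four hq hq2)
  have hpqN : p * q ∣ Nat.card G :=
    ((Nat.coprime_primes hp hq).mpr hpq).mul_dvd_of_dvd_of_dvd hpN hqN
  have hd : 4 * (p * q) ∣ Nat.card G := hc.mul_dvd_of_dvd_of_dvd h4 hpqN
  have h := dvd_sum_ordCount (G := G) (4 * (p * q)) hd
  rw [sum_div_four_mul hc (ordCount G), sum_div_pq hp hq hpq (ordCount G),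
    sum_div_pq hp hq hpq (fun y => ordCount G (2 * y)),
    sum_div_pq hp hq hpq (fun y => ordCount G (4 * y))] at h
  simp only [mul_one] at h
  rw [ordCount_one, h21, ordCount_two_mul h21 (hq.odd_of_ne_two hq2),
    ordCount_two_mul h21 (hp.odd_of_ne_two hp2),
    ordCount_two_mul h21 ((hp.odd_of_ne_two hp2).mul (hq.odd_of_ne_two hq2))] at h
  have e : (2 + ordCount G 4) + (2 * ordCount G p + ordCount G (4 * p)) +
      (2 * ordCount G q + ordCount G (4 * q)) +
      (2 * ordCount G (p * q) + ordCount G (4 * (p * q))) =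
      1 + ordCount G q + ordCount G p + ordCount G (p * q) +
      (1 + ordCount G q + ordCount G p + ordCount G (p * q)) +
      (ordCount G 4 + ordCount G (4 * q) + ordCount G (4 * p) + ordCount G (4 * (p * q))) := by
    ring
  rw [e]
  exact h

/-- unique involution and `|G| = 2 · odd`: pass to the normal 2-complement. -/
theorem case_b1b
    (h : (((fun m : ℕ => Nat.card {g : G // orderOf g = m}) ''
      Set.range (orderOf : G → ℕ))).ncard = 3)
    (h2N : 2 ∣ Nat.card G) (h4N : ¬ 4 ∣ Nat.card G) (h21 : ordCount G 2 = 1) :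
    Group.IsSolvable G := by
  classical
  obtain ⟨z, hz, huniq, hzc⟩ := exists_central_invol h21
  haveI : Fact (Nat.Prime 2) := ⟨Nat.prime_two⟩
  let P : Sylow 2 G := default
  have hPcard : Nat.card (P : Subgroup G) = 2 := by
    obtain ⟨k, hk⟩ := (IsPGroup.iff_card).mp P.isPGroup'
    have h1 : Nat.card (P : Subgroup G) ∣ Nat.card G := Subgroup.card_subgroup_dvd_card _
    have h2 : 2 ∣ Nat.card (P : Subgroup G) := P.dvd_card_of_dvd_card h2N
    rw [hk] at h1 h2 ⊢
    rcases k with _ | _ | k
    · simp at h2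
    · simp
    · exfalso
      apply h4N
      exact (Dvd.intro (2 ^ k) (by ring)).trans h1
  have hPc : ∀ x ∈ (P : Subgroup G), ∀ g : G, g * x = x * g := by
    intro x hx g
    have hx2 : x ^ 2 = 1 := by
      have h1 := pow_card_eq_one' (G := (P : Subgroup G)) (x := ⟨x, hx⟩)
      rw [hPcard] at h1
      have h2 := congrArg Subtype.val h1
      simpa using h2
    by_cases hx1 : x = 1
    · rw [hx1, mul_one, one_mul]
    · have h3 : orderOf x ∣ 2 := orderOf_dvd_of_pow_eq_one hx2
      have h4 : orderOf x = 2 := by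
        rcases (Nat.dvd_prime Nat.prime_two).mp h3 with h5 | h5
        · exact absurd (orderOf_eq_one_iff.mp h5) hx1
        · exact h5
      rw [huniq x h4]
      exact hzc g
  have hP : Subgroup.normalizer (P : Set G) ≤ Subgroup.centralizer (P : Set G) := by
    intro g _
    rw [Subgroup.mem_centralizer_iff]
    intro x hx
    exact (hPc x hx g).symm
  let K : Subgroup G := (MonoidHom.transferSylow P hP).ker
  have hcomp : Subgroup.IsComplement' K (P : Subgroup G) :=
    MonoidHom.ker_transferSylow_isComplement' P hP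
  have hKcard : Nat.card K * 2 = Nat.card G := by
    rw [← hPcard]
    exact hcomp.card_mul
  have hKodd : Odd (Nat.card K) := by
    rcases Nat.even_or_odd (Nat.card K) with he | ho
    · exfalso
      obtain ⟨j, hj⟩ := he
      apply h4N
      exact Dvd.intro j (by omega)
    · exact ho
  have hKidx : K.index = 2 := by rw [hcomp.symm.index_eq_card, hPcard]
  have hKmem : ∀ g : G, Odd (orderOf g) → g ∈ K := by
    intro g hg
    have h1 : g ^ 2 ∈ K := by
      have := Subgroup.pow_index_mem K g
      rwa [hKidx] at this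
    obtain ⟨t, ht⟩ := hg
    have h2 : g = (g ^ 2) ^ (t + 1) := by
      rw [← pow_mul, show 2 * (t + 1) = orderOf g + 1 by omega, pow_succ, pow_orderOf_eq_one,
        one_mul]
    rw [h2]
    exact K.pow_mem h1 _
  have hcount : ∀ k : ℕ, Odd k → ordCount K k = ordCount G k := by
    intro k hk
    unfold ordCount
    refine Nat.card_congr ?_
    exact
      { toFun := fun x => ⟨x.1.1, (Subgroup.orderOf_coe x.1).trans x.2⟩
        invFun := fun y => ⟨⟨y.1, hKmem y.1 (by rw [y.2]; exact hk)⟩,
          (Subgroup.orderOf_coe (⟨y.1, hKmem y.1 (by rw [y.2]; exact hk)⟩ : K)).symm.trans y.2⟩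
        left_inv := fun x => Subtype.ext (Subtype.ext rfl)
        right_inv := fun y => Subtype.ext rfl }
  have hVK : ((fun m : ℕ => Nat.card {g : K // orderOf g = m}) ''
      Set.range (orderOf : K → ℕ)) =
      ((fun m : ℕ => Nat.card {g : G // orderOf g = m}) '' Set.range (orderOf : G → ℕ)) := by
    ext v
    constructor
    · rintro ⟨_, ⟨x, rfl⟩, rfl⟩
      have hoddx : Odd (orderOf x) := hKodd.of_dvd_nat (orderOf_dvd_natCard x)
      exact ⟨orderOf x, ⟨(x : G), Subgroup.orderOf_coe x⟩, (hcount _ hoddx).symm⟩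
    · rintro ⟨_, ⟨g, rfl⟩, rfl⟩
      by_cases hd : Odd (orderOf g)
      · exact ⟨orderOf g, ⟨⟨g, hKmem g hd⟩, (Subgroup.orderOf_coe (⟨g, hKmem g hd⟩ : K)).symm⟩,
          hcount _ hd⟩
      · have hdN : orderOf g ∣ Nat.card G := orderOf_dvd_natCard g
        obtain ⟨k, hk⟩ : ∃ k, orderOf g = 2 * k := by
          rcases Nat.even_or_odd (orderOf g) with he | ho
          · obtain ⟨k, hk⟩ := he
            exact ⟨k, by omega⟩
          · exact absurd ho hd
        have hkodd : Odd k := by
          rcases Nat.even_or_odd k with he | ho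
          · exfalso
            obtain ⟨j, hj⟩ := he
            apply h4N
            exact (Dvd.intro j (by omega : 4 * j = orderOf g)).trans hdN
          · exact ho
        have hg2 : orderOf (g ^ 2) = k := by
          rw [orderOf_pow' g (by norm_num), hk, Nat.gcd_eq_right (dvd_mul_right 2 k),
            Nat.mul_div_cancel_left k (by norm_num)]
        have hmem : g ^ 2 ∈ K := hKmem _ (by rw [hg2]; exact hkodd)
        refine ⟨k, ⟨⟨g ^ 2, hmem⟩, (Subgroup.orderOf_coe (⟨g ^ 2, hmem⟩ : K)).symm.trans hg2⟩, ?_⟩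
        show ordCount K k = ordCount G (orderOf g)
        rw [hk]
        exact (hcount k hkodd).trans (ordCount_two_mul h21 hkodd).symm
  have hK3 := h
  rw [← hVK] at hK3
  have hpf := (Cfsg.Agent.S4004.result hKodd hK3).1
  haveI : Group.IsSolvable K := solvable_of_pf hpf
  haveI : Group.IsSolvable (P : Subgroup G) := by
    haveI : Group.IsNilpotent (P : Subgroup G) := P.isPGroup'.isNilpotent
    infer_instance
  exact solvable_of_ker_le_range K.subtype (MonoidHom.transferSylow P hP)
    (le_of_eq (Subgroup.range_subtype K).symm)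

theorem nse3_solvable
    (h : (((fun m : ℕ => Nat.card {g : G // orderOf g = m}) ''
      Set.range (orderOf : G → ℕ))).ncard = 3) :
    Group.IsSolvable G := by
  classical
  have hmemV : ∀ d, ordCount G d ≠ 0 → ordCount G d ∈
      ((fun m : ℕ => Nat.card {g : G // orderOf g = m}) '' Set.range (orderOf : G → ℕ)) := by
    intro d hd
    obtain ⟨g, rfl⟩ := (ordCount_ne_zero_iff d).mp hd
    exact ⟨orderOf g, ⟨g, rfl⟩, rfl⟩
  have h1V : (1 : ℕ) ∈
      ((fun m : ℕ => Nat.card {g : G // orderOf g = m}) '' Set.range (orderOf : G → ℕ)) :=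
    ⟨1, ⟨1, orderOf_one⟩, ordCount_one⟩
  rcases Nat.even_or_odd (Nat.card G) with heven | hodd
  swap
  · exact solvable_of_pf (Cfsg.Agent.S4004.result hodd h).1
  have h2N : 2 ∣ Nat.card G := even_iff_two_dvd.mp heven
  have hc2 : 2 ∣ 1 + ordCount G 2 := frob_prime Nat.prime_two h2N
  by_cases h21 : ordCount G 2 = 1
  · by_cases h4N : 4 ∣ Nat.card G
    · apply solvable_of_pf
      apply pf_card_le_two
      intro p q hp hq hp2 hq2 hpq hpN hqN
      have hu4 : 4 ∣ 2 + ordCount G 4 := by
        have := frob_four (G := G) h4N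
        rw [h21] at this
        omega
      have hu1 : ordCount G 4 ≠ 1 := by omega
      have hu0 : ordCount G 4 ≠ 0 := by omega
      obtain ⟨w, hw1, hwu, hVall⟩ := third h h1V (hmemV 4 hu0) (Ne.symm hu1)
      have hval : ∀ d, 3 ≤ d →
          ordCount G d = 0 ∨ ordCount G d = ordCount G 4 ∨ ordCount G d = w := by
        intro d hd
        by_cases h0 : ordCount G d = 0
        · exact Or.inl h0
        · rcases hVall _ (hmemV d h0) with h1 | h1 | h1
          · have := le_two_of_ordCount_eq_one h1
            omega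
          · exact Or.inr (Or.inl h1)
          · exact Or.inr (Or.inr h1)
      have h3p : 3 ≤ p := by
        have := hp.two_le
        omega
      have h3q : 3 ≤ q := by
        have := hq.two_le
        omega
      have h3pq : 3 ≤ p * q := le_trans h3p (Nat.le_mul_of_pos_right p hq.pos)
      have hvp := (hval p h3p).resolve_left (ordCount_prime_ne_zero hp hpN)
      have hvq := (hval q h3q).resolve_left (ordCount_prime_ne_zero hq hqN)
      have hpq1 : p * q ∣ 1 + ordCount G p + ordCount G q + ordCount G (p * q) := by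
        have := frob_pq (G := G) hp hq hpq hpN hqN
        have e : 1 + ordCount G p + ordCount G q + ordCount G (p * q) =
            1 + ordCount G q + ordCount G p + ordCount G (p * q) := by ring
        rw [e]
        exact this
      exact core1a hp hq hp2 hq2 (ordCount G 4) w (ordCount G p) (ordCount G q)
        (ordCount G (p * q)) (ordCount G (4 * p)) (ordCount G (4 * q))
        (ordCount G (4 * (p * q)))
        hu4 (frob_prime hp hpN) (frob_prime hq hqN) hpq1
        (frob_four_p h21 hp hp2 h4N hpN) (frob_four_p h21 hq hq2 h4N hqN)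
        (frob_four_pq h21 hp hq hp2 hq2 hpq h4N hpN hqN)
        (even_ordCount h3p) (even_ordCount h3q) (even_ordCount h3pq)
        hvp hvq (hval _ h3pq) (hval _ (by omega)) (hval _ (by omega)) (hval _ (by omega))
    · exact case_b1b h h2N h4N h21
  · apply solvable_of_pf
    apply pf_card_le_two
    intro p q hp hq hp2 hq2 hpq hpN hqN
    have hm0 : ordCount G 2 ≠ 0 := by omega
    obtain ⟨n, hn1, hnm, hVall⟩ := third h h1V (hmemV 2 hm0) (Ne.symm h21)
    have h3p : 3 ≤ p := by
      have := hp.two_le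
      omega
    have h3q : 3 ≤ q := by
      have := hq.two_le
      omega
    have h3pq : 3 ≤ p * q := le_trans h3p (Nat.le_mul_of_pos_right p hq.pos)
    have key : ∀ d, 3 ≤ d → ordCount G d = 0 ∨ ordCount G d = n := by
      intro d hd
      by_cases h0 : ordCount G d = 0
      · exact Or.inl h0
      · obtain ⟨t, ht⟩ := even_ordCount (G := G) hd
        rcases hVall _ (hmemV d h0) with h1 | h1 | h1
        · omega
        · omega
        · exact Or.inr h1
    have hcp : ordCount G p = n := (key p h3p).resolve_left (ordCount_prime_ne_zero hp hpN)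
    have hcq : ordCount G q = n := (key q h3q).resolve_left (ordCount_prime_ne_zero hq hqN)
    have hp1 := frob_prime (G := G) hp hpN
    rw [hcp] at hp1
    have hpq1 := frob_pq (G := G) hp hq hpq hpN hqN
    rw [hcp, hcq] at hpq1
    exact core2 hp hp2 n (ordCount G (p * q)) hp1 hpq1 (key _ h3pq)

end main

end Cfsg.Agent.Lib.Helper50.Nse3
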